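import Mathlib
import Cfsg.Agent.Lib.Helper19.KAlt.Defs

/-!
# S0748 (Livingstone–Wagner: `k`-homogeneous, `5 ≤ k`, `2k ≤ n` implies `k`-transitive):
interface of the team project "LW5"

Route: S0746 (`(k-1)`-transitive), S0747 (project KALT: some `k`-set carries the alternating
group), parity of involutions, and M. Hall's theorem (landed S4221).
Only definitions and package statements (`Prop`s).
-/

set_option autoImplicit false

namespace Cfsg.Agent.Lib.Helper19.KAlt

open Cfsg.Agent.Lib.Helper75.LW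

universe u

section defs

variable {α : Type u}

/-- some `k`-set carries (at least) the alternating group -/
def AltOn [DecidableEq α] (G : Subgroup (Equiv.Perm α)) (k : ℕ) : Prop :=
  ∃ Δ : Finset α, Δ.card = k ∧ ∀ σ : Equiv.Perm ↥Δ, σ ∈ alternatingGroup ↥Δ →
    ∃ g ∈ G, ∀ x : ↥Δ, g (x : α) = σ x

/-- every element of `G` stabilising a `k`-set induces an even permutation on it -/
def EvenOn [DecidableEq α] (G : Subgroup (Equiv.Perm α)) (k : ℕ) : Prop :=
  ∀ Δ : Finset α, Δ.card = k → ∀ g ∈ G, ∀ τ : Equiv.Perm ↥Δ,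
    (∀ x : ↥Δ, g (x : α) = τ x) → Equiv.Perm.sign τ = 1

/-- every permutation of every `k`-set is induced by an element of `G` -/
def FullOn (G : Subgroup (Equiv.Perm α)) (k : ℕ) : Prop :=
  ∀ Δ : Finset α, Δ.card = k → ∀ σ : Equiv.Perm ↥Δ, ∃ g ∈ G, ∀ x : ↥Δ, g (x : α) = σ x

end defs

/-- [EV1] homogeneous + alternating somewhere + an odd permutation somewhere: the full symmetric
group on every `k`-set -/
def PkgEv1 : Prop := ∀ {α : Type u} [Fintype α] [DecidableEq α] (G : Subgroup (Equiv.Perm α))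
  (k : ℕ), HH G k → AltOn G k → ¬ EvenOn G k → FullOn G k

/-- [EV2] homogeneous + full symmetric group on every `k`-set: `k`-transitive -/
def PkgEv2 : Prop := ∀ {α : Type u} [Fintype α] [DecidableEq α] (G : Subgroup (Equiv.Perm α))
  (k : ℕ), HH G k → FullOn G k → HT G k

/-- [SGN] an involution moving `2 mod 4` points is odd -/
def PkgSgn : Prop := ∀ {β : Type u} [Fintype β] [DecidableEq β] (τ : Equiv.Perm β),
  τ * τ = 1 → (Finset.univ.filter (fun b => τ b ≠ b)).card % 4 = 2 → Equiv.Perm.sign τ = -1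

/-- [INVSET] an involution with at least 4 fixed points stabilises a `k`-set on which it moves
`2 mod 4` points -/
def PkgInvSet : Prop := ∀ {α : Type u} [Fintype α] [DecidableEq α] (t : Equiv.Perm α) (k : ℕ),
  t * t = 1 → t ≠ 1 → 5 ≤ k → 2 * k ≤ Fintype.card α →
  (∃ s : Finset α, s.card = 4 ∧ ∀ a ∈ s, t a = a) →
  ∃ Δ : Finset α, Δ.card = k ∧ (∀ a, t a ∈ Δ ↔ a ∈ Δ) ∧
    (Δ.filter (fun a => t a ≠ a)).card % 4 = 2

/-- [NOINV4] under `EvenOn` no involution fixes four points -/
def PkgNoInv4 : Prop := ∀ {α : Type u} [Fintype α] [DecidableEq α] (G : Subgroup (Equiv.Perm α))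
  (k : ℕ), 5 ≤ k → 2 * k ≤ Fintype.card α → EvenOn G k → NoInv G 4

/-- [ODDK] the four-point stabilisers have odd order -/
def PkgOddK : Prop := ∀ {α : Type u} [Fintype α] [DecidableEq α] (G : Subgroup (Equiv.Perm α)),
  NoInv G 4 → ∀ x : Fin 4 ↪ α, Odd (Nat.card (MulAction.stabilizer G x))

/-- [HALL5] M. Hall's theorem (landed S4221) excludes the situation -/
def PkgHall5 : Prop := ∀ {α : Type u} [Fintype α] [DecidableEq α] (G : Subgroup (Equiv.Perm α))
  (k : ℕ), 5 ≤ k → 2 * k ≤ Fintype.card α → HT G 4 → NoInv G 4 → HH G k → False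

/-- the theorem S0748 in the `HH`/`HT` language -/
def PkgMain5 : Prop := ∀ {α : Type u} [Fintype α] [DecidableEq α] (G : Subgroup (Equiv.Perm α))
  (k : ℕ), 5 ≤ k → 2 * k ≤ Fintype.card α → HH G k → HT G k

end Cfsg.Agent.Lib.Helper19.KAlt
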