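import Mathlib
import Cfsg.Agent.Lib.Helper19.KAlt.Defs

/-!
# S0747, project KALT: the assembly (strong induction on the degree)
-/

set_option autoImplicit false

namespace Cfsg.Agent.Lib.Helper19.KAlt

open Cfsg.Agent.Lib.Helper75.LW

universe u

theorem mainK_aux (hRedQ : PkgRedQ.{u}) (hRed1 : PkgRed1.{u}) (hRed2 : PkgRed2.{u})
    (hSlide : PkgSlide.{u}) (hRestr : PkgRestr.{u}) (hTrans : PkgTrans.{u})
    (hSE : PkgSemiEven.{u}) (hSO : PkgSemiOdd.{u}) (hShN : PkgShN.{u})
    (hShS : PkgShSmall.{u}) (hShB : PkgShBig.{u}) :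
    ∀ n : ℕ, ∀ (α : Type u) [Fintype α] [DecidableEq α] (G : Subgroup (Equiv.Perm α)) (k : ℕ),
      Fintype.card α = n → 4 ≤ k → k < Fintype.card α → HT G k → Good G k := by
  intro n
  induction n using Nat.strong_induction_on with
  | _ n ih =>
    intro α _ _ G k hn hk hkn hT
    by_cases hT1 : Triv G (k + 1)
    · by_cases hT0 : Triv G k
      · rcases hShN G k hk hkn hT hT0 with h | h
        · exact hShS G k hk hkn h hT
        · exact hShB G k hT hT0 h
      · obtain ⟨Δ, hΔ⟩ : ∃ Δ : Finset α, Δ.card = k + 1 := by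
          obtain ⟨Δ, -, hΔ⟩ := Finset.exists_subset_card_eq (s := (Finset.univ : Finset α))
            (n := k + 1) (by rw [Finset.card_univ]; omega)
          exact ⟨Δ, hΔ⟩
        by_cases hI : NoInv G k
        · have h1 := hSO G k hk hT hT1 hI hT0
          exact ⟨Δ, hΔ, fun σ _ => hTrans G (k + 1) h1 Δ hΔ σ⟩
        · exact ⟨Δ, hΔ, fun σ _ => hSE G k (by omega) hT hT1 hI Δ hΔ σ⟩
    · obtain ⟨p, Q, F, hM⟩ := hRedQ G k hT1
      have hStep : Step G F k := by
        by_cases hS : ∀ L : Finset α, L.card = k → ∀ R : Subgroup (Equiv.Perm α),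
            R ≤ PS G L → IsPGroup p ↥R → Nat.card R ≤ Nat.card Q
        · exact hRed1 G k p Q F hM hT hS
        · push_neg at hS
          obtain ⟨L, hL, R, hR, hRp, hlt⟩ := hS
          exact hRed2 G k p Q F hM hT ⟨L, hL, R, hR, hRp, hlt⟩
      have hOn : HTOn G F k := hSlide G F k (by omega) hM.big hStep
      obtain ⟨G', hT', hGood⟩ := hRestr G F k hOn
      apply hGood
      have hcard : Fintype.card ↥F = F.card := Fintype.card_coe F
      have hlt : F.card < Fintype.card α := by
        have hne : ∃ q ∈ Q, q ≠ 1 := by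
          by_contra hcon
          push_neg at hcon
          exact hM.ne ((Subgroup.eq_bot_iff_forall Q).mpr hcon)
        obtain ⟨q, hq, hq1⟩ := hne
        have : ∃ a, q a ≠ a := by
          by_contra hcon
          push_neg at hcon
          exact hq1 (Equiv.ext hcon)
        obtain ⟨a, ha⟩ := this
        have haF : a ∉ F := fun h => ha ((hM.fix a).mp h q hq)
        rw [← Finset.card_univ]
        exact Finset.card_lt_card (Finset.ssubset_univ_iff.mpr (fun h => haF (h ▸ Finset.mem_univ a)))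
      have hbig := hM.big
      exact ih (Fintype.card ↥F) (by omega) ↥F G' k rfl hk (by omega) hT'

theorem pkgMainK_of (hRedQ : PkgRedQ.{u}) (hRed1 : PkgRed1.{u}) (hRed2 : PkgRed2.{u})
    (hSlide : PkgSlide.{u}) (hRestr : PkgRestr.{u}) (hTrans : PkgTrans.{u})
    (hSE : PkgSemiEven.{u}) (hSO : PkgSemiOdd.{u}) (hShN : PkgShN.{u})
    (hShS : PkgShSmall.{u}) (hShB : PkgShBig.{u}) : PkgMainK.{u} := by
  intro α _ _ G k hk hkn hT
  exact mainK_aux hRedQ hRed1 hRed2 hSlide hRestr hTrans hSE hSO hShN hShS hShB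
    (Fintype.card α) α G k rfl hk hkn hT

end Cfsg.Agent.Lib.Helper19.KAlt
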